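import Cfsg.Agent.H955.L34.Gen550
import Cfsg.Agent.H904.L34.UnitZ
import Cfsg.Agent.H904.L34.Tr8

/-!
# S5917: `trace_zero` for helper550's matrices (helper955)
-/

set_option autoImplicit false
set_option linter.unusedSectionVars false

namespace Cfsg.Agent.H955.L34

open Matrix Cfsg.Agent.H691.L34 Cfsg.Agent.H904.L34 Cfsg.Agent.H904.L34.Unit Module Cfsg.Agent.H550.L34
open Cfsg.Agent.H955.L34.Gen (om_w)

variable {F : Type} [Field F] [Fintype F] {ω : F}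

theorem g1_eq (h : Om ω) : g1 (ω + 1) (om_w h) = gD h * gD h := by
  apply Subtype.ext
  rw [co_mul]
  show (!![1, 0, 0; 0, ω + 1, 0; 0, 0, (ω + 1) ^ 2] : M3 F) =
    !![1, 0, 0; 0, ω, 0; 0, 0, ω + 1] * !![1, 0, 0; 0, ω, 0; 0, 0, ω + 1]
  rw [mulM]
  refine eqM ?_ ?_ ?_ ?_ ?_ ?_ ?_ ?_ ?_ <;> first | ring1 | linear_combination -h.eq | linear_combination h.eq

theorem g2_eq (h : Om ω) : (g2 : G3 F) = gP h * gP h := by
  apply Subtype.ext
  rw [co_mul]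
  show (!![0, 0, 1; 1, 0, 0; 0, 1, 0] : M3 F) =
    !![0, 1, 0; 0, 0, 1; 1, 0, 0] * !![0, 1, 0; 0, 0, 1; 1, 0, 0]
  rw [mulM]
  refine eqM ?_ ?_ ?_ ?_ ?_ ?_ ?_ ?_ ?_ <;> ring

theorem gi_eq (hF : Fintype.card F = 4) (h : Om ω) : gi (ω + 1) (om_w h) hF = gW h := by
  apply Subtype.ext
  show (!![1, 1, 1; 1, (ω + 1) ^ 2, (ω + 1); 1, (ω + 1), (ω + 1) ^ 2] : M3 F) = !![1, 1, 1; 1, ω, ω + 1; 1, ω + 1, ω]
  rw [Cfsg.Agent.H955.L34.Gen.om_sq h]

theorem gj_eq (hF : Fintype.card F = 4) (h : Om ω) : gj (ω + 1) (om_w h) hF = gJ h := by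
  apply Subtype.ext
  show (!![1, (ω + 1), (ω + 1); (ω + 1) ^ 2, (ω + 1) ^ 2, (ω + 1); (ω + 1) ^ 2, (ω + 1), (ω + 1) ^ 2] : M3 F) =
    !![1, ω + 1, ω + 1; ω, ω, ω + 1; ω, ω + 1, ω]
  rw [Cfsg.Agent.H955.L34.Gen.om_sq h]

section

variable {V : Type} [AddCommGroup V] [Module (ZMod 2) V] {ρ : Representation (ZMod 2) (G3 F) V}

/-- the fixed vectors of the square of an element of order 3 -/
theorem ker_sq {g : G3 F} (hg : g ^ 3 = 1) : LinearMap.ker (ρ (g * g) - LinearMap.id) = LinearMap.ker (ρ g - LinearMap.id) := by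
  ext v
  rw [LinearMap.mem_ker, LinearMap.mem_ker, LinearMap.sub_apply, LinearMap.sub_apply, LinearMap.id_apply, sub_eq_zero,
    sub_eq_zero]
  constructor
  · intro h
    have h1 : g * g * (g * g) = g := by
      have h2 : g * g * (g * g) = g ^ 3 * g := by rw [← pow_succ]; simp only [pow_succ, pow_zero, one_mul, mul_assoc]
      rw [h2, hg, one_mul]
    have h2 : ρ (g * g * (g * g)) v = v := by rw [map_mul, Module.End.mul_apply, h, h]
    rwa [h1] at h2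
  · intro h
    rw [map_mul, Module.End.mul_apply, h, h]

variable [Module.Finite (ZMod 2) V]

/-- **`trace_zero` for the matrices `gD`, `gP`, `gW`, `gJ`** -/
theorem trace_zero_550 (hF : Fintype.card F = 4) (h : Om ω) (hc : CT ρ) {n5 n7 : ℕ}
    (hn5 : n5 = 68 ∨ n5 = 48) (hn7 : n7 = 80 ∨ n7 = 38)
    (hd : Dims ρ (⊤ : Submodule (ZMod 2) V) 248 86 n5 n7)
    (h20 : Module.finrank (ZMod 2) (LinearMap.ker (ρ (gD h) - LinearMap.id) ⊓ LinearMap.ker (ρ (gP h) - LinearMap.id) ⊓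
      LinearMap.ker (ρ (gZ h) - LinearMap.id) : Submodule (ZMod 2) V) = 20)
    {v : V} (hv : (∃ b W, IsNine ρ b W ∧ v ∈ W) ∨ v ∈ fixAll ρ) {u : V} (h1 : ρ (gD h) u = u) (h2 : ρ (gP h) u = u)
    (hs : v = u + ρ (gW h) u + ρ (gW h * gW h) u + ρ (gW h * gW h * gW h) u + ρ (gJ h) u + ρ (gJ h * gW h) u +
      ρ (gJ h * (gW h * gW h)) u + ρ (gJ h * (gW h * gW h * gW h)) u) : v = 0 := by
  refine trace_zero_unit (om_w h) hF hc hn5 hn7 hd ?_ hv (u := u) ?_ ?_ rfl ?_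
  · rw [g1_eq h, g2_eq h, gi_eq hF h, ker_sq (D_3 h), ker_sq (P_3 h), W_W]
    exact h20
  · rw [g1_eq h, map_mul, Module.End.mul_apply, h1, h1]
  · rw [g2_eq h, map_mul, Module.End.mul_apply, h2, h2]
  · rw [gi_eq hF h, gj_eq hF h, hs]
    simp only [map_add, map_mul, Module.End.mul_apply]
    abel

end

end Cfsg.Agent.H955.L34
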